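import Cfsg.Agent.Feit23.Lat

/-! Regular two-graphs on 276 points are tight spherical designs in dimension 23. -/

set_option autoImplicit false

namespace Cfsg.Lib.Mcl275

open Module Matrix Finset

variable {ι : Type*} [Fintype ι] [DecidableEq ι] {M : Matrix ι ι ℚ}

theorem trace_eq {c : ℚ} (hc : c ≠ 0) (h : M * M = c • M) :
    M.trace = c * finrank ℚ (LinearMap.range (toLin' M)) := by
  have e : IsIdempotentElem (toLin' (c⁻¹ • M)) := by
    rw [IsIdempotentElem, Module.End.mul_eq_comp, ← toLin'_mul, smul_mul_smul, h, smul_smul,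
      inv_mul_cancel_right₀ hc]
  have := (LinearMap.IsIdempotentElem.isProj_range _ e).trace
  rw [trace_toLin'_eq, map_smul, LinearMap.range_smul _ _ (inv_ne_zero hc), trace_smul] at this
  rw [← this, smul_eq_mul, mul_inv_cancel_left₀ hc]

/-- The Gram matrix of 276 equiangular vectors of norm 5 forming a tight frame. -/
structure TG (M : Matrix ι ι ℚ) : Prop where
  card : Fintype.card ι = 276
  symm : ∀ i j, M i j = M j i
  diag : ∀ i, M i i = 5
  off : ∀ i j, i ≠ j → M i j = 1 ∨ M i j = -1
  sq : M * M = (60 : ℚ) • M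

/-- The column space. -/
abbrev U (M : Matrix ι ι ℚ) : Submodule ℚ (ι → ℚ) := LinearMap.range (toLin' M)

theorem TG.dim (h : TG M) : finrank ℚ (U M) = 23 := by
  have := trace_eq (by norm_num) h.sq
  simp only [trace, diag_apply, h.diag, sum_const, card_univ, h.card, nsmul_eq_mul] at this
  exact_mod_cast (show (finrank ℚ (U M) : ℚ) = 23 by push_cast at this; linarith)

theorem TG.mem (h : TG M) {y : ι → ℚ} : y ∈ U M ↔ M *ᵥ y = (60 : ℚ) • y := by
  refine ⟨?_, fun e => ⟨(1 / 60 : ℚ) • y, by rw [map_smul, toLin'_apply, e, smul_smul]; simp⟩⟩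
  rintro ⟨z, rfl⟩
  rw [toLin'_apply, mulVec_mulVec, h.sq, smul_mulVec]

/-- The columns. -/
def col (M : Matrix ι ι ℚ) (i : ι) : U M := ⟨fun j => M j i, Pi.single i 1, by ext; simp⟩

theorem TG.dot_col (h : TG M) (y : U M) (i : ι) : y.1 ⬝ᵥ (col M i).1 = 60 * y.1 i := by
  have := congrFun (h.mem.1 y.2) i
  simp only [mulVec, dotProduct, Pi.smul_apply, smul_eq_mul] at this
  rw [← this]
  exact sum_congr rfl fun j _ => by rw [mul_comm, h.symm i]; rfl

theorem TG.sq_eq (h : TG M) (i j : ι) : M i j * M i j = 1 + if i = j then 24 else 0 := by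
  split_ifs with e
  · rw [e, h.diag]; norm_num
  · rcases h.off i j e with k | k <;> rw [k] <;> norm_num

theorem TG.quartic (h : TG M) (y : U M) : 100 * ∑ i, y.1 i ^ 4 = (∑ i, y.1 i ^ 2) ^ 2 := by
  let b := finBasisOfFinrankEq ℚ _ h.dim
  let F : (ι → ℚ) →ₗ[ℚ] LinearMap.BilinForm ℚ (U M) := Fintype.linearCombination ℚ fun k =>
    LinearMap.BilinForm.linMulLin ((LinearMap.proj k).comp (U M).subtype)
      ((LinearMap.proj k).comp (U M).subtype)
  have hF : ∀ α z w, F α z w = ∑ k, α k * (z.1 k * w.1 k) := fun α z w => by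
    simp [F, Fintype.linearCombination_apply, LinearMap.sum_apply]
  have ev : ∀ α j, F α (col M j) (col M j) = ∑ k, α k + 24 * α j := fun α j => by
    rw [hF]
    change ∑ k, α k * (M k j * M k j) = _
    simp [h.sq_eq, mul_add, sum_add_distrib, mul_comm]
  let Φ : (ι → ℚ) →ₗ[ℚ] (Sym2 (Fin 23) → ℚ) :=
    { toFun := fun α => Sym2.lift ⟨fun i j => F α (b i) (b j), fun i j => by
        simp only [hF, mul_comm]⟩
      map_add' := fun α β => funext fun s => Sym2.inductionOn s fun i j => by simp
      map_smul' := fun c α => funext fun s => Sym2.inductionOn s fun i j => by simp }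
  have inj : Function.Injective Φ := (injective_iff_map_eq_zero _).2 fun α e => by
    have z : F α = 0 := LinearMap.ext_basis b b fun i j => congrFun e s(i, j)
    have a : ∀ j, ∑ k, α k + 24 * α j = 0 := fun j => by rw [← ev, z]; rfl
    have := sum_eq_zero fun j (_ : j ∈ univ) => a j
    rw [sum_add_distrib, sum_const, card_univ, h.card, ← mul_sum, nsmul_eq_mul] at this
    ext j
    have := a j
    push_cast at *
    rw [Pi.zero_apply]
    linarith
  let D : LinearMap.BilinForm ℚ (U M) := (toBilin' 1).comp (U M).subtype (U M).subtype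
  have hD : ∀ z w, D z w = z.1 ⬝ᵥ w.1 := fun z w => by simp [D, toBilin'_apply']
  obtain ⟨α, hα⟩ := (LinearMap.injective_iff_surjective_of_finrank_eq_finrank (by
    simp [h.card, Sym2.card, Nat.choose])).1 inj
    (Sym2.lift ⟨fun i j => D y (b i) * D y (b j), fun i j => mul_comm _ _⟩)
  have e : F α = LinearMap.BilinForm.linMulLin (D y) (D y) :=
    LinearMap.ext_basis b b fun i j => congrFun hα s(i, j)
  have a : ∀ j, ∑ k, α k + 24 * α j = 3600 * y.1 j ^ 2 := fun j => by
    rw [← ev, e, LinearMap.BilinForm.linMulLin_apply, hD, h.dot_col]; ring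
  have s := sum_congr rfl fun j (_ : j ∈ univ) => a j
  rw [sum_add_distrib, sum_const, card_univ, h.card, ← mul_sum, ← mul_sum, nsmul_eq_mul] at s
  have t := hF α y y
  rw [e, LinearMap.BilinForm.linMulLin_apply, hD, sum_congr rfl (g := fun k => 150 * y.1 k ^ 4 -
    (∑ k, α k) / 24 * y.1 k ^ 2) fun k _ => by linear_combination y.1 k ^ 2 / 24 * a k,
    sum_sub_distrib, ← mul_sum, ← mul_sum] at t
  simp only [dotProduct, ← _root_.sq] at t
  push_cast at s
  rw [show ∑ k, α k = 12 * ∑ i, y.1 i ^ 2 by linarith] at t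
  linarith

end Cfsg.Lib.Mcl275
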