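import Cfsg.Agent.Mcl275.Lat
import Cfsg.Agent.S0401
import Cfsg.Agent.S1579
import Cfsg.Prelude.Def_Spor_Conway

/-! Point stabilisers in the group of a regular two-graph on 276 points. -/

set_option autoImplicit false

namespace Cfsg.Lib.Mcl275

open Module LinearMap Submodule Matrix Feit23

variable {ι : Type*} [Fintype ι] [DecidableEq ι] {M : Matrix ι ι ℚ} {G : Type*} [Group G]

theorem exists_hom {V : Type*} [AddCommGroup V] [Module ℚ V] {B : LinearMap.BilinForm ℚ V}
    {Λ : Submodule ℤ V} (σ : Representation ℚ G V) (iv : ∀ g p q, B (σ g p) (σ g q) = B p q)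
    (hT : ∀ g, ∀ p ∈ Λ, σ g p ∈ Λ) (F : Λ ≃+ leechLattice)
    (hF : ∀ y : Λ, (sqNorm (F y : GolayPt → ℤ) : ℚ) = 8 * B y y) {w x : V} (w0 : w ∈ Λ) (x0 : x ∈ Λ)
    (ww : B w w = 6) (xx : B x x = 4) (wx : B (w - x) (w - x) = 4) (sw : ∀ g, σ g w = w)
    (sx : ∀ g, σ g x = x) : ∃ f : G →* Spor.McL, ∀ g, f g = 1 → ∀ p ∈ Λ, σ g p = p := by
  have tw : ∀ (F : Λ ≃+ leechLattice) (γ : Co0), (∀ y : Λ,
      (sqNorm (F y : GolayPt → ℤ) : ℚ) = 8 * B y y) → ∃ F' : Λ ≃+ leechLattice, (∀ y : Λ,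
      (sqNorm (F' y : GolayPt → ℤ) : ℚ) = 8 * B y y) ∧ ∀ y, F' y = γ • F y := fun F γ hF =>
    ⟨F.trans ⟨γ.1, γ.2.1⟩, fun y => by rw [← hF, ← γ.2.2 (F y)]; rfl, fun _ => rfl⟩
  obtain ⟨γ, hγ⟩ := Agent.S0401.result (F ⟨_, w0⟩) Spor.leechV
    (Int.cast_injective (α := ℚ) (by rw [hF, ww]; norm_num)) (by decide)
  obtain ⟨F, hF, e⟩ := tw F γ hF
  rw [← e] at hγ
  obtain ⟨γ', g1, g2⟩ := Agent.S1579.result Spor.leechV (F ⟨_, x0⟩) (-Spor.leechU) (by decide)
    ⟨Int.cast_injective (α := ℚ) (by rw [hF, xx]; norm_num), Int.cast_injective (α := ℚ) (by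
      rw [← hγ, ← AddSubgroup.coe_sub, ← map_sub, hF, AddSubgroupClass.coe_sub, wx]; norm_num)⟩
    (by decide)
  obtain ⟨F, hF, e⟩ := tw F γ' hF
  have FV : F ⟨_, w0⟩ = Spor.leechV := by rw [e, hγ, g1]
  have FU : F (-⟨_, x0⟩) = Spor.leechU := by rw [map_neg, e, g2, neg_neg]
  let f : G →* Function.End leechLattice :=
    { toFun := fun g v => F ⟨σ g (F.symm v), hT g _ (F.symm v).2⟩
      map_one' := funext fun v => by simp; rfl
      map_mul' := fun g k => funext fun v => by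
        change F _ = F _
        congr 2
        simp }
  have fa : ∀ g v, f.toHomPerm g (F v) = F ⟨σ g v, hT g _ v.2⟩ := fun g v => by
    change F ⟨σ g (F.symm (F v)), _⟩ = _
    simp
  have hf : ∀ g, f.toHomPerm g ∈ Spor.McL := fun g => by
    refine ⟨⟨⟨fun a b => ?_, fun v => Int.cast_injective (α := ℚ) ?_⟩, ?_⟩, ?_⟩
    · obtain ⟨a, rfl⟩ := F.surjective a
      obtain ⟨b, rfl⟩ := F.surjective b
      rw [← map_add, fa, fa, fa, ← map_add]
      congr 1
      exact Subtype.ext (map_add _ _ _)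
    · obtain ⟨a, rfl⟩ := F.surjective v
      rw [fa, hF, hF, iv]
    · change f.toHomPerm g _ = _
      rw [← FV, fa]
      exact congrArg F (Subtype.ext (sw ..))
    · change f.toHomPerm g _ = _
      rw [← FU, fa]
      exact congrArg F (Subtype.ext ((map_neg _ _).trans (by rw [sx]; rfl)))
  refine ⟨f.toHomPerm.codRestrict _ hf, fun g hg p hp => ?_⟩
  have := fa g ⟨p, hp⟩
  rw [show f.toHomPerm g = 1 from congrArg Subtype.val hg, Equiv.Perm.one_apply,
    F.apply_eq_iff_eq] at this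
  exact (congrArg Subtype.val this).symm

theorem TG.exists_rep (h : TG M) (π : G →* Equiv.Perm ι) (hM : ∀ g i j, M (π g i) (π g j) = M i j) :
    ∃ σ : Representation ℚ G (U M × ℚ), (∀ g p i, (σ g p).1.1 i = p.1.1 ((π g).symm i)) ∧
      ∀ g p, (σ g p).2 = p.2 := by
  have hU : ∀ g, ∀ y ∈ U M, funLeft ℚ ℚ (π g).symm y ∈ U M := fun g y hy => h.mem.2 (funext fun i => by
    have := congrFun (h.mem.1 hy) ((π g).symm i)
    simp only [mulVec, dotProduct, Pi.smul_apply, funLeft_apply] at this ⊢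
    rw [← this]
    exact (Fintype.sum_equiv (π g) _ _ fun j => by rw [← hM g]; simp).symm)
  let σ : Representation ℚ G (U M × ℚ) :=
    { toFun := fun g => ((funLeft ℚ ℚ (π g).symm).restrict (hU g)).prodMap LinearMap.id
      map_one' := LinearMap.ext fun p => by ext <;> simp [Equiv.Perm.one_def]
      map_mul' := fun g k => LinearMap.ext fun p => by ext <;> simp [Equiv.Perm.mul_def] }
  exact ⟨σ, fun _ _ _ => rfl, fun _ _ => rfl⟩

theorem TG.embed (h : TG M) (o : ι) (π : G →* Equiv.Perm ι) (hπ : Function.Injective π)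
    (hM : ∀ g i j, M (π g i) (π g j) = M i j) (ho : ∀ g, π g o = o) :
    ∃ H : Subgroup G, H.index ∣ 2 ∧ ∃ f : H →* Spor.McL, Function.Injective f := by
  obtain ⟨σ, s1, s2⟩ := h.exists_rep π hM
  have sc : ∀ g i, σ g (col M i, 1 / 2) = (col M (π g i), 1 / 2) := fun g i => by
    ext j
    · rw [s1]; change M _ i = M j _; rw [← hM g]; simp
    · exact s2 ..
  have sw : ∀ g s, σ g (0, s) = (0, s) := fun g s => Prod.ext (Subtype.ext (funext (s1 g _))) (s2 ..)
  have iv : ∀ g p q, frm M (σ g p) (σ g q) = frm M p q := fun g p q => by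
    rw [frm_apply, frm_apply, s2, s2]
    congr 2
    exact Fintype.sum_equiv (π g).symm _ _ fun j => by rw [s1, s1]
  have il : ∀ g, ∀ y ∈ lat M, σ g y ∈ lat M := fun g y hy => by
    induction hy using span_induction with
    | mem z hz =>
      rcases hz with rfl | ⟨i, rfl⟩
      · rw [sw]; exact subset_span (Or.inl rfl)
      · rw [sc]; exact subset_span (Or.inr ⟨_, rfl⟩)
    | zero => simp
    | add a b _ _ p q => rw [map_add]; exact add_mem p q
    | smul a b _ p => rw [map_zsmul]; exact smul_mem _ _ p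
  obtain ⟨t, Λ, hΛ, t1, t2, t3, F, hF⟩ := h.exists_leech o
  have le : lat M ≤ Λ := hΛ ▸ le_sup_left
  have w0 : ((0 : U M), (1 : ℚ)) ∈ Λ := le (subset_span (Or.inl rfl))
  have xi : ∀ i, (col M i, (1 / 2 : ℚ)) ∈ Λ := fun i => le (subset_span (Or.inr ⟨i, rfl⟩))
  have cc : frm M (col M o, 1 / 2) (col M o, 1 / 2) = 4 := by
    rw [h.frm_col]; change M o o / 2 + _ = _; rw [h.diag]; norm_num
  let H : Subgroup G :=
    { carrier := {g | σ g t - t ∈ lat M}
      one_mem' := by simp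
      mul_mem' := fun {a b} ha hb => by
        have := add_mem (il a _ hb) ha
        rwa [map_sub, sub_add_sub_cancel, ← mul_app] at this
      inv_mem' := fun {a} ha => by
        have := neg_mem (il a⁻¹ _ ha)
        rwa [map_sub, inv_app, neg_sub] at this }
  have pm : ∀ g, g ∉ H → σ g t + t ∈ lat M := fun g hg => (t3 _ (mem_dual.2 fun z hz => by
    rw [← app_inv (ρ := σ) g z, iv]; exact mem_dual.1 t1 _ (il _ z hz)) ((s2 ..).trans t2) (iv ..)).resolve_left hg
  have hT : ∀ g : H, ∀ p ∈ Λ, σ g p ∈ Λ := fun g p hp => by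
    rw [hΛ] at hp ⊢
    obtain ⟨a, ha, _, hb, rfl⟩ := mem_sup.1 hp
    obtain ⟨k, rfl⟩ := mem_span_singleton.1 hb
    rw [map_add, map_zsmul, map_add, sw, ← sub_add_cancel (σ g t) t, add_assoc]
    exact add_mem (mem_sup_left (il _ a ha)) (smul_mem _ _
      (add_mem (mem_sup_left g.2) (mem_sup_right (mem_span_singleton_self _))))
  obtain ⟨f, hf⟩ := exists_hom (σ.comp H.subtype) (fun g => iv g) hT F hF w0 (xi o)
    (by simp [frm_apply]) cc (by
      simp only [map_sub, LinearMap.sub_apply, cc]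
      simp [frm_apply]; norm_num) (fun g => sw g 1) fun g => (sc g o).trans (by rw [ho])
  refine ⟨H, H.index_dvd_two_iff.2 ?_, f,
    (injective_iff_map_eq_one _).2 fun g hg => Subtype.ext (hπ (Equiv.ext fun i => ?_))⟩
  · by_cases k : ∀ g, g ∈ H
    · exact ⟨1, fun b => Or.inr (k b)⟩
    obtain ⟨a, ha⟩ := not_forall.1 k
    refine ⟨a, fun b => or_iff_not_imp_right.2 fun hb => ?_⟩
    have := sub_mem (il b _ (pm a ha)) (pm b hb)
    rwa [map_add, add_sub_add_comm, ← mul_app, add_comm, sub_add_sub_cancel'] at this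
  · have := congrArg (fun t => t.1.1 i) ((hf g hg _ (xi i)).symm.trans (sc g i))
    change M i i = M i _ at this
    by_contra e
    rw [h.diag] at this
    rcases h.off i _ (fun z => e (by simpa using z.symm)) with k | k <;> rw [k] at this <;>
      norm_num at this

end Cfsg.Lib.Mcl275
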