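import Cfsg.Agent.Mcl275.Theta
import Cfsg.Agent.Mcl275.Des
import Cfsg.Agent.Feit23.Glue

/-! The lattice of a regular two-graph on 276 points has index 3 in the Leech lattice. -/

set_option autoImplicit false

namespace Cfsg.Lib.Mcl275

open Module LinearMap Submodule Matrix Feit23

section
variable {V : Type*} [AddCommGroup V] [Module ℚ V] {B : LinearMap.BilinForm ℚ V}
  {L : Submodule ℤ V}

theorem exists_glue (hd : finrank ℚ V = 24) (hB : Pos B) (h : L.IsLattice ℚ)
    (ev : ∀ y ∈ L, IsZ (B y y / 2)) {u x : V} (hu : u ∈ B.dualSubmodule L) (uu : B u u = 2 / 3)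
    (hx : x ∈ L) (xu : B x u = 1)
    (h1 : ∀ y ∈ B.dualSubmodule L, ∃ k : ℤ, 3 * B y y = 2 * k ∧ (B y u = 0 → k % 3 ≠ 1)) :
    ∃ t, (∀ s ∈ B.dualSubmodule L, B s u = 0 → B s s = B t t → s - t ∈ L ∨ s + t ∈ L) ∧
      t ∈ B.dualSubmodule L ∧ B t u = 0 ∧
      B.dualSubmodule (L ⊔ span ℤ {t + u}) = L ⊔ span ℤ {t + u} ∧
      ∀ y ∈ L ⊔ span ℤ {t + u}, IsZ (B y y / 2) := by
  have int := int_of_even hB.symm ev
  choose! κ hκ hκ' using h1
  have bil : ∀ y ∈ B.dualSubmodule L, ∀ z ∈ B.dualSubmodule L,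
      3 * B y z = (κ (y + z) - κ y - κ z : ℤ) := fun y hy z hz => by
    have := hκ _ (add_mem hy hz)
    simp only [map_add, LinearMap.add_apply, hB.symm z y] at this
    push_cast
    linarith [hκ y hy, hκ z hz]
  have dec : ∀ y ∈ B.dualSubmodule L, ∃ j i : ℤ, B (y - (j : ℚ) • u - (i : ℚ) • x) u = 0 :=
    fun y hy => by
      have := bil y hy u hu
      generalize κ (y + u) - κ y - κ u = b at this
      refine ⟨-b, b, ?_⟩
      simp only [map_sub, map_smul, LinearMap.sub_apply, LinearMap.smul_apply, smul_eq_mul, uu, xu]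
      push_cast; linarith
  have md : ∀ y ∈ B.dualSubmodule L, ∀ j i : ℤ, y - (j : ℚ) • u - (i : ℚ) • x ∈ B.dualSubmodule L :=
    fun y hy j i => sub_mem (sub_mem hy ((IsZ.cast j).smul_mem hu)) ((IsZ.cast i).smul_mem (int hx))
  have crit : ∀ s ∈ B.dualSubmodule L, B s u = 0 →
      (∀ y ∈ B.dualSubmodule L, B y u = 0 → IsZ (B s y)) → s ∈ L := fun s hs su k => by
    rw [← dual_dual hd (by omega) hB h, mem_dual]
    intro y hy
    obtain ⟨j, i, e⟩ := dec y hy
    convert (k _ (md y hy j i) e).add ((IsZ.cast i).mul (mem_dual.1 hs x hx)) using 1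
    simp [su]
  obtain ⟨t, ht, tu, t2⟩ : ∃ t ∈ B.dualSubmodule L, B t u = 0 ∧ κ t % 3 = 2 := by
    by_contra k
    push Not at k
    refine not_three hd hB h ev hu uu fun y hy => ?_
    obtain ⟨j, i, e⟩ := dec y hy
    refine ⟨j, ?_⟩
    have := crit _ (md y hy j i) e fun z hz zu => by
      have hs := md y hy j i
      generalize y - (j : ℚ) • u - (i : ℚ) • x = s at hs e
      have su : B (s + z) u = 0 := by simp [e, zu]
      have a := bil s hs z hz
      have := k s hs e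
      have := k z hz zu
      have := k _ (add_mem hs hz) su
      have := hκ' s hs e
      have := hκ' z hz zu
      have := hκ' _ (add_mem hs hz) su
      obtain ⟨c, hc⟩ : 3 ∣ κ (s + z) - κ s - κ z := by omega
      exact ⟨c, by rw [hc] at a; push_cast at a; linarith⟩
    simpa using add_mem this ((IsZ.cast i).smul_mem hx)
  obtain ⟨n, hn⟩ : ∃ n : ℤ, B t t = 2 * n + 4 / 3 := ⟨κ t / 3, by
    have := hκ t ht
    rw [show κ t = 3 * (κ t / 3) + 2 by omega] at this
    push_cast at this; linarith⟩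
  have T0 : ∀ s ∈ B.dualSubmodule L, B s u = 0 → IsZ (B s t) → κ s % 3 = 0 := fun s hs su ⟨c, hc⟩ => by
    have a := bil s hs t ht
    have := hκ' s hs su
    have := hκ' _ (add_mem hs ht) (by simp [su, tu])
    have : 3 * c = κ (s + t) - κ s - κ t := by rw [hc] at a; exact_mod_cast a
    omega
  have red : ∀ s ∈ B.dualSubmodule L, ∃ j : ℤ, 3 * B s t = j ∧ IsZ (B (s - (j : ℚ) • t) t) :=
    fun s hs => by
      have := bil s hs t ht
      generalize κ (s + t) - κ s - κ t = j at this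
      refine ⟨j, this, -j - 2 * n * j, ?_⟩
      simp only [map_sub, map_smul, LinearMap.sub_apply, LinearMap.smul_apply, smul_eq_mul, hn]
      push_cast; linarith
  have key : ∀ s ∈ B.dualSubmodule L, B s u = 0 → IsZ (B s t) → s ∈ L := fun s hs su st =>
    crit s hs su fun y hy yu => by
      obtain ⟨j, -, e⟩ := red y hy
      have hz := sub_mem hy ((IsZ.cast j).smul_mem ht)
      have zu : B (y - (j : ℚ) • t) u = 0 := by simp [yu, tu]
      have a := bil s hs _ hz
      have := T0 s hs su st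
      have := T0 _ hz zu e
      have := T0 _ (add_mem hs hz) (by rw [map_add, LinearMap.add_apply, su, zu, add_zero])
        (by rw [map_add, LinearMap.add_apply]; exact st.add e)
      obtain ⟨c, hc⟩ : 3 ∣ κ (s + (y - (j : ℚ) • t)) - κ s - κ (y - (j : ℚ) • t) := by omega
      rw [hc] at a
      convert (IsZ.cast c).add ((IsZ.cast j).mul st) using 1
      simp only [map_sub, map_smul, smul_eq_mul] at a
      push_cast at a; linarith
  have t3 : (3 : ℚ) • t ∈ L := key _ ((IsZ.cast 3).smul_mem ht) (by simp [tu])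
    ⟨6 * n + 4, by simp [hn]; ring⟩
  have mm : ∀ y, y ∈ L ⊔ span ℤ {t + u} ↔ ∃ k : ℤ, y - (k : ℚ) • (t + u) ∈ L := fun y => by
    simp only [mem_sup, mem_span_singleton, Int.cast_smul_eq_zsmul]
    exact ⟨fun ⟨a, ha, _, ⟨k, rfl⟩, e⟩ => ⟨k, by rw [← e]; simpa using ha⟩,
      fun ⟨k, hk⟩ => ⟨_, hk, _, ⟨k, rfl⟩, by simp⟩⟩
  have ev' : ∀ y ∈ L ⊔ span ℤ {t + u}, IsZ (B y y / 2) := fun y hy => by
    obtain ⟨k, hk⟩ := (mm y).1 hy
    obtain ⟨a, ha⟩ := ev _ hk
    obtain ⟨b, hb⟩ := mem_dual.1 (add_mem ht hu) _ hk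
    simp only [map_sub, map_smul, map_add, LinearMap.sub_apply, LinearMap.smul_apply, smul_eq_mul,
      LinearMap.add_apply, hB.symm y t, hB.symm y u, hB.symm u t, tu, uu, hn] at ha hb
    exact ⟨a + k * b + k * k * (n + 1), by push_cast; linear_combination ha + k * hb⟩
  refine ⟨t, fun s hs su st => ?_, ht, tu, le_antisymm (fun y hy => ?_) (int_of_even hB.symm ev'), ev'⟩
  · obtain ⟨j, hj, e⟩ := red s hs
    have a := key _ (sub_mem hs ((IsZ.cast j).smul_mem ht)) (by simp [su, tu]) e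
    have : j % 3 = 0 ∨ j % 3 = 1 ∨ j % 3 = 2 := by omega
    rcases this with k | k | k
    · have := T0 s hs su ⟨j / 3, by
        rw [show j = 3 * (j / 3) by omega] at hj; push_cast at hj; linarith⟩
      have : κ s = κ t := Int.cast_injective (α := ℚ) (by linarith [hκ s hs, hκ t ht])
      omega
    · left
      convert add_mem a ((IsZ.cast (j / 3)).smul_mem t3) using 1
      conv_rhs => enter [1]; rw [show j = 3 * (j / 3) + 1 by omega]
      push_cast; module
    · right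
      convert add_mem a ((IsZ.cast (j / 3 + 1)).smul_mem t3) using 1
      conv_rhs => enter [1]; rw [show j = 3 * (j / 3) + 2 by omega]
      push_cast; module
  · have hy' : y ∈ B.dualSubmodule L := mem_dual.2 fun z hz => mem_dual.1 hy z (mem_sup_left hz)
    obtain ⟨j, i, e⟩ := dec y hy'
    obtain ⟨c, hc⟩ := mem_dual.1 hy _ (mem_sup_right (mem_span_singleton_self _))
    obtain ⟨d, hd⟩ := mem_dual.1 ht x hx
    have := key (y - (j : ℚ) • u - (i : ℚ) • x - (j : ℚ) • t)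
      (sub_mem (md y hy' j i) ((IsZ.cast j).smul_mem ht)) (by
        rw [map_sub, LinearMap.sub_apply, e]; simp [tu]) ⟨c - i - i * d - 2 * j * (n + 1), by
        simp only [map_sub, map_smul, map_add, LinearMap.sub_apply, LinearMap.smul_apply,
          smul_eq_mul, hB.symm u t, hB.symm x t, tu, uu, hn, xu, hd] at e hc ⊢
        push_cast; linarith⟩
    refine (mm y).2 ⟨j, ?_⟩
    convert add_mem this ((IsZ.cast i).smul_mem hx) using 1
    module

end

variable {ι : Type*} [Fintype ι] [DecidableEq ι] {M : Matrix ι ι ℚ}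

omit [DecidableEq ι] in
theorem numerics (hc : Fintype.card ι = 276) (a : ι → ℤ) (b : ℤ)
    (h : 100 * ∑ i, (2 * a i - b) ^ 4 = (∑ i, (2 * a i - b) ^ 2) ^ 2) :
    ∃ k, ∑ i, (2 * a i - b) ^ 2 + 20 * b ^ 2 = 80 * k ∧ (b = 0 → k % 3 ≠ 1) ∧ k ≠ 3 := by
  obtain ⟨m, hm⟩ : (10 : ℤ) ∣ ∑ i, (2 * a i - b) ^ 2 :=
    (Int.pow_dvd_pow_iff two_ne_zero).1 ⟨∑ i, (2 * a i - b) ^ 4, by rw [← h]; norm_num⟩
  obtain ⟨q, s, s0, s1, rfl⟩ : ∃ q s : ℤ, 0 ≤ s ∧ s < 8 ∧ m = 8 * q + s :=
    ⟨m / 8, m % 8, by omega, by omega, by omega⟩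
  have h4 : ∑ i, (2 * a i - b) ^ 4 = 64 * (q * q) + 16 * q * s + s * s := by
    rw [hm] at h; linarith
  obtain ⟨β, rfl | rfl⟩ := Int.even_or_odd' b
  · obtain ⟨r, hr⟩ : (12 : ℤ) ∣ ∑ i, ((a i - β) ^ 4 - (a i - β) ^ 2) := Finset.dvd_sum fun i _ =>
      (ZMod.intCast_zmod_eq_zero_iff_dvd _ 12).1 (by
        push_cast; generalize (a i : ZMod 12) - β = e; revert e; decide)
    have r0 : 0 ≤ ∑ i, ((a i - β) ^ 4 - (a i - β) ^ 2) := Finset.sum_nonneg fun i _ => by
      generalize a i - β = e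
      rcases eq_or_ne e 0 with rfl | k
      · simp
      · have := sq_pos_of_ne_zero k; nlinarith
    have e : ∑ i, (2 * a i - 2 * β) ^ 4 - 4 * ∑ i, (2 * a i - 2 * β) ^ 2 =
        16 * ∑ i, ((a i - β) ^ 4 - (a i - β) ^ 2) := by
      rw [Finset.mul_sum, Finset.mul_sum, ← Finset.sum_sub_distrib]
      exact Finset.sum_congr rfl fun i _ => by ring
    rw [h4, hm, hr] at e
    rw [hr] at r0
    obtain rfl : s = 0 := by interval_cases s <;> omega
    refine ⟨q + β * β, by rw [hm]; ring, fun b0 => ?_, fun k => ?_⟩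
    · obtain rfl : β = 0 := by omega
      intro k
      obtain ⟨j, rfl⟩ : ∃ j, q = 3 * j + 1 := ⟨q / 3, by omega⟩
      rw [show (3 * j + 1) * (3 * j + 1) = 3 * (3 * j * j + 2 * j) + 1 by ring] at e
      omega
    · have q0 : 0 ≤ q := by
        have := Finset.sum_nonneg fun i (_ : i ∈ Finset.univ) => sq_nonneg (2 * a i - 2 * β)
        omega
      obtain ⟨_, _⟩ : -2 < β ∧ β < 2 := by constructor <;> nlinarith
      interval_cases β <;> (obtain rfl : q = 3 - _ := eq_sub_of_add_eq k) <;> omega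
  · obtain ⟨r, hr⟩ : (64 : ℤ) ∣ ∑ i, (((2 * a i - (2 * β + 1)) ^ 2 - 1) *
        ((2 * a i - (2 * β + 1)) ^ 2 - 9)) := Finset.dvd_sum fun i _ => by
      obtain ⟨t, ht⟩ : (4 : ℤ) ∣ (a i - β - 2) * (a i - β - 1) * (a i - β) * (a i - β + 1) :=
        (ZMod.intCast_zmod_eq_zero_iff_dvd _ 4).1 (by
          push_cast; generalize (a i : ZMod 4) - β = e; revert e; decide)
      exact ⟨t, by linear_combination 16 * ht⟩
    obtain ⟨r', hr'⟩ : (8 : ℤ) ∣ ∑ i, ((2 * a i - (2 * β + 1)) ^ 2 - 1) := Finset.dvd_sum fun i _ => by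
      obtain ⟨t, ht⟩ := Int.even_mul_pred_self (a i - β)
      exact ⟨t, by linear_combination 4 * ht⟩
    have r0 : 0 ≤ ∑ i, ((2 * a i - (2 * β + 1)) ^ 2 - 1) := Finset.sum_nonneg fun i _ => by
      have := sq_pos_of_ne_zero (show 2 * a i - (2 * β + 1) ≠ 0 by omega)
      omega
    rw [Finset.sum_congr rfl (g := fun i => (2 * a i - (2 * β + 1)) ^ 4 -
      10 * (2 * a i - (2 * β + 1)) ^ 2 + 9) fun i _ => by ring, Finset.sum_add_distrib,
      Finset.sum_sub_distrib, ← Finset.mul_sum, h4, hm] at hr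
    rw [Finset.sum_sub_distrib, hm] at hr' r0
    simp only [Finset.sum_const, Finset.card_univ, hc, nsmul_eq_mul, Nat.cast_ofNat] at hr hr' r0
    obtain rfl : s = 6 := by interval_cases s <;> omega
    refine ⟨q + β * β + β + 1, by rw [hm]; ring, by omega, fun k => ?_⟩
    nlinarith [sq_nonneg (2 * β + 1)]

/-- The form on the column space and a line. -/
noncomputable def frm (M : Matrix ι ι ℚ) : LinearMap.BilinForm ℚ (U M × ℚ) :=
  gform ((1 / 120 : ℚ) • (toBilin' 1).comp (U M).subtype (U M).subtype) 6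

theorem frm_apply (p q : U M × ℚ) : frm M p q = p.1.1 ⬝ᵥ q.1.1 / 120 + 6 * (p.2 * q.2) := by
  simp [frm, gform_apply, toBilin'_apply']; ring

/-- The lattice generated by the 276 vectors of norm 4 and the vector of norm 6. -/
def lat (M : Matrix ι ι ℚ) : Submodule ℤ (U M × ℚ) :=
  span ℤ (insert (0, 1) (Set.range fun i => (col M i, (1 / 2 : ℚ))))

theorem mem_dual_lat {p : U M × ℚ} : p ∈ (frm M).dualSubmodule (lat M) ↔
    IsZ (frm M p (0, 1)) ∧ ∀ i, IsZ (frm M p (col M i, 1 / 2)) := by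
  refine mem_dual.trans ⟨fun h => ⟨h _ (subset_span (Or.inl rfl)), fun i =>
    h _ (subset_span (Or.inr ⟨i, rfl⟩))⟩, fun h z hz => ?_⟩
  induction hz using span_induction with
  | mem z hz => rcases hz with rfl | ⟨i, rfl⟩; exacts [h.1, h.2 i]
  | zero => simpa using IsZ.zero
  | add a b _ _ p q => rw [map_add]; exact p.add q
  | smul a b _ p => rw [map_zsmul, zsmul_eq_mul]; exact (IsZ.cast a).mul p

theorem TG.frm_col (h : TG M) (p : U M × ℚ) (i : ι) :
    frm M p (col M i, 1 / 2) = p.1.1 i / 2 + 3 * p.2 := by rw [frm_apply, h.dot_col]; ring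

theorem TG.norm (h : TG M) {p : U M × ℚ} (hp : p ∈ (frm M).dualSubmodule (lat M)) :
    ∃ k : ℤ, 3 * frm M p p = 2 * k ∧ (frm M p (0, 1 / 3) = 0 → k % 3 ≠ 1) ∧ k ≠ 3 := by
  obtain ⟨⟨b, hb⟩, h2⟩ := mem_dual_lat.1 hp
  choose a ha using h2
  simp only [frm_apply, h.frm_col, ZeroMemClass.coe_zero, dotProduct_zero, zero_div, zero_add,
    mul_one] at hb ha ⊢
  have e : ∀ i, p.1.1 i = 2 * a i - b := fun i => by linarith [ha i]
  obtain ⟨k, k1, k2, k3⟩ := numerics h.card a b (Int.cast_injective (α := ℚ) (by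
    push_cast; simpa only [e] using h.quartic p.1))
  refine ⟨k, ?_, fun z => k2 (Int.cast_injective (α := ℚ) (by rw [← hb]; push_cast; linarith)), k3⟩
  have := congrArg (Int.cast : ℤ → ℚ) k1
  push_cast at this
  simp only [dotProduct, e, ← pow_two]
  linear_combination this / 40 + (p.2 * 3 + b / 2) * hb

theorem TG.exists_leech (h : TG M) (o : ι) : ∃ (t : U M × ℚ) (Λ : Submodule ℤ (U M × ℚ)),
    Λ = lat M ⊔ span ℤ {t + (0, 1 / 3)} ∧ t ∈ (frm M).dualSubmodule (lat M) ∧ t.2 = 0 ∧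
    (∀ s ∈ (frm M).dualSubmodule (lat M), s.2 = 0 → frm M s s = frm M t t →
      s - t ∈ lat M ∨ s + t ∈ lat M) ∧
    ∃ F : Λ ≃+ leechLattice, ∀ y : Λ, (sqNorm (F y : GolayPt → ℤ) : ℚ) = 8 * frm M y y := by
  have hd : finrank ℚ (U M × ℚ) = 24 := by rw [finrank_prod, h.dim, finrank_self]
  have hB : Pos (frm M) := ⟨fun p q => by rw [frm_apply, frm_apply, dotProduct_comm, mul_comm p.2],
    fun p hp => by
      rw [frm_apply]
      have a : 0 ≤ p.1.1 ⬝ᵥ p.1.1 := Finset.sum_nonneg fun i _ => mul_self_nonneg _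
      have b := mul_self_nonneg p.2
      refine lt_of_le_of_ne (by positivity) fun z => hp (Prod.ext (Subtype.ext
        (dotProduct_self_eq_zero.1 (by linarith))) (mul_self_eq_zero.1 (by linarith)))⟩
  have w0 : ((0 : U M), (1 : ℚ)) ∈ lat M := subset_span (Or.inl rfl)
  have xi : ∀ i, (col M i, (1 / 2 : ℚ)) ∈ lat M := fun i => subset_span (Or.inr ⟨i, rfl⟩)
  have hl : (lat M).IsLattice ℚ := ⟨fg_span ((Set.finite_range _).insert _), by
    rw [eq_top_iff]
    rintro ⟨⟨_, z, rfl⟩, s⟩ -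
    convert add_mem (sum_mem fun i (_ : i ∈ Finset.univ) => smul_mem (span ℚ (lat M : Set _)) (z i)
      (subset_span (xi i))) (smul_mem _ (s - ∑ i, z i / 2) (subset_span w0)) using 1
    ext j
    · simp [Prod.fst_sum, col, mulVec, dotProduct, mul_comm]
    · simp [Prod.snd_sum, div_eq_mul_inv]⟩
  have int : lat M ≤ (frm M).dualSubmodule (lat M) := span_le.2 (by
    rintro _ (rfl | ⟨i, rfl⟩) <;> refine mem_dual_lat.2 ⟨?_, fun j => ?_⟩
    · exact ⟨6, by simp [frm_apply]⟩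
    · exact ⟨3, by rw [h.frm_col]; simp⟩
    · exact ⟨3, by simp [frm_apply]; norm_num⟩
    · rw [h.frm_col]
      change IsZ (M j i / 2 + _)
      by_cases e : j = i
      · exact ⟨4, by rw [e, h.diag]; norm_num⟩
      · rcases h.off j i e with k | k <;> rw [k]
        exacts [⟨2, by norm_num⟩, ⟨1, by norm_num⟩])
  have ev : ∀ y ∈ lat M, IsZ (frm M y y / 2) := fun y hy => by
    induction hy using span_induction with
    | mem z hz =>
      rcases hz with rfl | ⟨i, rfl⟩
      · exact ⟨3, by simp [frm_apply]; norm_num⟩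
      · exact ⟨2, by rw [h.frm_col]; change (M i i / 2 + _) / 2 = _; rw [h.diag]; norm_num⟩
    | zero => simpa using IsZ.zero
    | add a b ha hb p q =>
      convert (p.add q).add (mem_dual.1 (int ha) b hb) using 1
      simp only [map_add, LinearMap.add_apply, hB.symm b a]; ring
    | smul a b _ p =>
      convert ((IsZ.cast a).mul (IsZ.cast a)).mul p using 1
      simp only [map_zsmul, LinearMap.smul_apply, zsmul_eq_mul]; ring
  have z2 : ∀ s : U M × ℚ, frm M s (0, 1 / 3) = 0 ↔ s.2 = 0 := fun s => by simp [frm_apply]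
  obtain ⟨t, t1, t2, t3, t4, t5⟩ := exists_glue hd hB hl ev (u := (0, 1 / 3))
    (mem_dual_lat.2 ⟨⟨2, by simp [frm_apply]; norm_num⟩, fun j => ⟨1, by rw [h.frm_col]; simp⟩⟩)
    (by simp [frm_apply]; norm_num) (xi o) (by simp [frm_apply]; norm_num)
    fun y hy => (h.norm hy).imp fun k e => ⟨e.1, e.2.1⟩
  refine ⟨t, _, rfl, t2, (z2 t).1 t3, fun s hs e => t1 s hs ((z2 s).2 e), (Feit23.exists_leech hd hB
    (IsLattice.of_le_of_isLattice_of_fg ℚ le_sup_left (hl.fg.sup (fg_span_singleton _)))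
    t4 t5 fun y hy e => ?_).1⟩
  obtain ⟨k, k1, -, k3⟩ := h.norm (p := y) (mem_dual.2 fun z hz =>
    mem_dual.1 (t4.ge hy) z (mem_sup_left hz))
  exact k3 (Int.cast_injective (α := ℚ) (by rw [e] at k1; push_cast; linarith))

end Cfsg.Lib.Mcl275
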