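import Cfsg.Agent.Mcl275.Des

/-! A rank 3 group of degree 275 with subdegrees 112 and 162 preserves a regular two-graph on
276 points. -/

set_option autoImplicit false

namespace Cfsg.Lib.Mcl275

open Matrix Finset MulAction

theorem exists_tg {Ω G : Type*} [Fintype Ω] [DecidableEq Ω] [Group G] [MulAction G Ω]
    (hΩ : Fintype.card Ω = 275) [IsPretransitive G Ω] (a b c : Ω)
    (hb : (orbit (stabilizer G a) b).ncard = 112) (hc : (orbit (stabilizer G a) c).ncard = 162) :
    ∃ M : Matrix (Option Ω) (Option Ω) ℚ, TG M ∧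
      ∀ (g : G) i j, M (i.map (g • ·)) (j.map (g • ·)) = M i j := by
  classical
  have na : ∀ y, 1 < (orbit (stabilizer G a) y).ncard → a ∉ orbit (stabilizer G a) y := fun y k e => by
    rw [← orbit_eq_iff.2 e, show orbit (stabilizer G a) a = {a} from
      Set.eq_singleton_iff_unique_mem.2 ⟨mem_orbit_self _, fun _ ⟨g, hg⟩ => hg.symm.trans g.2⟩] at k
    simp at k
  have dj : Disjoint (orbit (stabilizer G a) b) (orbit (stabilizer G a) c) :=
    Set.disjoint_left.2 fun y h1 h2 => by
      rw [← orbit_eq_iff.2 h1, orbit_eq_iff.2 h2] at hb; omega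
  have un : insert a (orbit (stabilizer G a) b ∪ orbit (stabilizer G a) c) = Set.univ :=
    Set.eq_of_subset_of_ncard_le (Set.subset_univ _) (by
      rw [Set.ncard_insert_of_notMem (fun k => k.elim (na b (by omega)) (na c (by omega))),
        Set.ncard_union_eq dj, hb, hc, Set.ncard_univ, Nat.card_eq_fintype_card, hΩ])
  have sum3 : ∀ φ : Ω → ℚ, (∀ g : G, g • a = a → ∀ y, φ (g • y) = φ y) →
      ∑ y, φ y = φ a + 112 * φ b + 162 * φ c := fun φ k => by
    have e : ∀ z, ∑ y ∈ (orbit (stabilizer G a) z).toFinset, φ y =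
        (orbit (stabilizer G a) z).ncard * φ z := fun z => by
      rw [sum_congr rfl (g := fun _ => φ z) fun y hy => by
        obtain ⟨g, rfl⟩ := Set.mem_toFinset.1 hy; exact k g g.2 z, sum_const, nsmul_eq_mul,
        Set.ncard_eq_toFinset_card']
    rw [← Set.toFinset_univ, Set.toFinset_congr un.symm, Set.toFinset_insert, sum_insert (by
      simpa using ⟨na b (by omega), na c (by omega)⟩), Set.toFinset_union,
      sum_union (Set.disjoint_toFinset.2 dj), e, e, hb, hc]
    push_cast; ring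
  let A : Matrix Ω Ω ℚ := of fun x y => if ∃ g : G, g • a = x ∧ g • b = y then 1 else 0
  have iv : ∀ (g : G) x y, A (g • x) (g • y) = A x y := fun g x y => if_congr
    ⟨fun ⟨k, h1, h2⟩ => ⟨g⁻¹ * k, by simp [mul_smul, h1], by simp [mul_smul, h2]⟩,
      fun ⟨k, h1, h2⟩ => ⟨g * k, by simp [mul_smul, h1], by simp [mul_smul, h2]⟩⟩ rfl rfl
  have A01 : ∀ x y, A x y = 0 ∨ A x y = 1 := fun x y => by
    simp only [A, of_apply]; split_ifs <;> simp
  have ab : A a b = 1 := if_pos ⟨1, by simp⟩
  have aa : A a a = 0 := if_neg fun ⟨g, h1, h2⟩ => na b (by omega) ⟨⟨g, h1⟩, h2⟩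
  have ac : A a c = 0 := if_neg fun ⟨g, h1, h2⟩ =>
    Set.disjoint_left.1 dj ⟨⟨g, h1⟩, h2⟩ (mem_orbit_self c)
  have tri : ∀ x y, ∃ g : G, x = g • a ∧ (y = g • a ∨ y = g • b ∨ y = g • c) := fun x y => by
    obtain ⟨g, rfl⟩ := exists_smul_eq G a x
    rcases un.ge (Set.mem_univ (g⁻¹ • y)) with e | ⟨k, e⟩ | ⟨k, e⟩
    · exact ⟨g, rfl, Or.inl (inv_smul_eq_iff.1 e)⟩
    · exact ⟨g * k, by rw [mul_smul, k.2], Or.inr (Or.inl (by
        rw [mul_smul]; exact inv_smul_eq_iff.1 e.symm))⟩
    · exact ⟨g * k, by rw [mul_smul, k.2], Or.inr (Or.inr (by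
        rw [mul_smul]; exact inv_smul_eq_iff.1 e.symm))⟩
  have row : ∀ x, ∑ y, A x y = 112 := fun x => by
    obtain ⟨g, rfl⟩ := exists_smul_eq G a x
    rw [← Fintype.sum_equiv (toPerm g) (fun y => A a y) _ fun y => (iv g a y).symm,
      sum3 _ fun k hk y => by rw [← iv k a y, hk], aa, ab, ac]
    norm_num
  have sy : ∀ x y, A x y = A y x := by
    have c1 : ∀ y, ∑ x, A x y = 112 * A b a + 162 * A c a := fun y => by
      obtain ⟨g, rfl⟩ := exists_smul_eq G a y
      rw [← Fintype.sum_equiv (toPerm g) (fun x => A x a) _ fun x => (iv g x a).symm,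
        sum3 _ fun k hk y => by rw [← iv k y a, hk], aa, zero_add]
    have := sum_comm (s := univ) (t := univ) (f := fun x y => A x y)
    simp only [row, c1, sum_const, card_univ, hΩ, nsmul_eq_mul] at this
    intro x y
    obtain ⟨g, rfl, rfl | rfl | rfl⟩ := tri x y
    · rfl
    all_goals rw [iv, iv]
    · rcases A01 b a with e | e <;> rcases A01 c a with f | f <;> rw [e, f] at this <;>
        norm_num at this
      rw [ab, e]
    · rcases A01 b a with e | e <;> rcases A01 c a with f | f <;> rw [e, f] at this <;>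
        norm_num at this
      rw [ac, f]
  have iv2 : ∀ (g : G) x y, (A * A) (g • x) (g • y) = (A * A) x y := fun g x y => by
    rw [mul_apply, mul_apply]
    exact (Fintype.sum_equiv (toPerm g) _ _ fun z => by rw [← iv g x, ← iv g z]; rfl).symm
  have nat : ∀ x y, ∃ n : ℕ, (A * A) x y = n := fun x y => by
    rw [mul_apply]
    exact sum_induction _ (fun t : ℚ => ∃ n : ℕ, t = n) (fun _ _ ⟨m, e⟩ ⟨n, f⟩ => ⟨m + n, by simp [e, f]⟩)
      ⟨0, by simp⟩ fun z _ => by
        rcases A01 x z with e | e <;> rcases A01 z y with f | f <;> rw [e, f]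
        exacts [⟨0, by simp⟩, ⟨0, by simp⟩, ⟨0, by simp⟩, ⟨1, by simp⟩]
  obtain ⟨l, hl⟩ := nat a b
  obtain ⟨m, hm⟩ := nat a c
  have d : (A * A) a a = 112 := by
    rw [← row a, mul_apply]
    exact sum_congr rfl fun z _ => by rw [sy z]; rcases A01 a z with e | e <;> simp [e]
  have ba : b ≠ a := fun e => by rw [e, aa] at ab; norm_num at ab
  have ca : c ≠ a := fun e => na c (by omega) (e ▸ mem_orbit_self c)
  have sq : ∀ x y, (A * A) x y = (if x = y then 112 - (m : ℚ) else 0) + (l - m) * A x y + m := fun x y => by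
    obtain ⟨g, rfl, rfl | rfl | rfl⟩ := tri x y <;> rw [iv, iv2] <;>
      simp [aa, ab, ac, d, hl, hm, ba.symm, ca.symm]
  have cnt := sum3 (fun y => (A * A) a y) fun k hk y => by rw [← iv2 k a y, hk]
  rw [d, hl, hm] at cnt
  simp only [mul_apply] at cnt
  rw [sum_comm] at cnt
  simp only [← mul_sum, row, ← sum_mul] at cnt
  have : 112 * 112 = 112 + 112 * l + 162 * m := by exact_mod_cast cnt
  have AA : ∀ x, A x x = 0 := fun x => by obtain ⟨g, rfl⟩ := exists_smul_eq G a x; rw [iv, aa]
  obtain ⟨rfl, rfl⟩ | ⟨rfl, rfl⟩ : (l = 111 ∧ m = 0) ∨ (l = 30 ∧ m = 56) := by omega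
  · have := trace_eq (M := A + 1) (c := 113) (by norm_num) (by
      ext x y
      simp only [mul_add, add_mul, mul_one, one_mul, Matrix.add_apply, sq, Matrix.smul_apply,
        one_apply]
      split_ifs <;> simp <;> ring)
    rw [trace_add, trace_one, hΩ, trace] at this
    simp only [diag_apply, AA, sum_const_zero, zero_add] at this
    generalize Module.finrank ℚ (LinearMap.range (toLin' (A + 1))) = n at this
    have : 275 = 113 * n := by exact_mod_cast this
    omega
  refine ⟨of fun i j => i.elim (j.elim 5 fun _ => 1) fun x => j.elim 1 fun y =>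
    1 + (if x = y then 4 else 0) - 2 * A x y, ⟨by simp [hΩ], ?_, ?_, ?_, ?_⟩, ?_⟩
  · rintro (_ | x) (_ | y) <;> simp [eq_comm]
    exact sy ..
  · rintro (_ | x) <;> simp [AA]
    norm_num
  · rintro (_ | x) (_ | y) e <;> simp at e ⊢
    rcases A01 x y with k | k <;> simp [k, e]
    norm_num
  · ext (_ | x) (_ | y) <;> simp only [mul_apply, Fintype.sum_option, of_apply, Option.elim,
      Matrix.smul_apply, smul_eq_mul]
    · simp [hΩ]; norm_num
    · simp [sum_add_distrib, sum_sub_distrib, ← mul_sum, hΩ, sy _ y, row]; norm_num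
    · simp [sum_add_distrib, sum_sub_distrib, ← mul_sum, hΩ, row]; norm_num
    · have := sq x y
      rw [mul_apply] at this
      rw [sum_congr rfl (g := fun z => 1 - 2 * A x z - 2 * A y z + 4 * (A x z * A z y) +
        (if x = z then 4 * (1 - 2 * A z y) else 0) + (if z = y then 4 * (1 - 2 * A x z) else 0) +
        if x = z then (if z = y then 16 else 0) else 0) fun z _ => by
          rw [sy y z]; split_ifs <;> ring]
      simp only [sum_add_distrib, sum_sub_distrib, ← mul_sum, row, this, sum_ite_eq, sum_ite_eq',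
        mem_univ, if_true, sum_const, card_univ, hΩ]
      split_ifs <;> norm_num <;> ring
  · rintro g (_ | x) (_ | y) <;> simp [iv]

end Cfsg.Lib.Mcl275
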