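import Cfsg.Agent.Feit23.Leech

/-! No even lattice of rank 24 has discriminant form that of `A₂`. -/

set_option autoImplicit false

namespace Cfsg.Lib.Mcl275

open Module LinearMap Submodule Matrix Feit23

variable {V W : Type*} [AddCommGroup V] [Module ℚ V] [AddCommGroup W] [Module ℚ W]
  {B : LinearMap.BilinForm ℚ V} {L : Submodule ℤ V}

theorem not_thirty (hd : finrank ℚ V = 30) (hB : Pos B) (h : L.IsLattice ℚ)
    (hs : B.dualSubmodule L = L) (ev : ∀ y ∈ L, IsZ (B y y / 2)) : False := by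
  obtain ⟨A, e, sy, ps, dt, he⟩ := exists_gram hd (by omega) hB h hs
  have u : Spor.Unimod A := ⟨sy, ps, dt⟩
  have per : ∀ a, Spor.thetaSum A (a + Complex.I) = Spor.thetaSum A a := fun a => tsum_congr fun y => by
    obtain ⟨k, hk⟩ := ev _ (e y).2
    have : y ⬝ᵥ A *ᵥ y = 2 * k := Int.cast_injective (α := ℚ) (by rw [he]; push_cast; linarith)
    rw [this, Complex.exp_eq_exp_iff_exists_int]
    exact ⟨-k, by push_cast; ring⟩
  have pw : ∀ a : ℂ, (1 / a ^ (1 / 2 : ℂ)) ^ 30 = 1 / a ^ 15 := fun a => by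
    have := Complex.cpow_nat_inv_pow a (n := 2) two_ne_zero
    rw [show 30 = 2 * 15 from rfl, pow_mul, div_pow, one_div (2 : ℂ)]
    push_cast at this
    rw [this, div_pow]; simp
  have h1 := u.thetaSum_eq (1 - Complex.I) (by simp)
  have h2 := u.thetaSum_eq ((1 - Complex.I) / 2) (by simp)
  have i1 : (1 - Complex.I)⁻¹ = (1 - Complex.I) / 2 + Complex.I :=
    inv_eq_of_mul_eq_one_right (by ring_nf; simp; ring)
  have i2 : ((1 - Complex.I) / 2)⁻¹ = 1 + Complex.I :=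
    inv_eq_of_mul_eq_one_right (by ring_nf; simp; ring)
  rw [i2, per, pw] at h2
  rw [i1, per, pw, h2, ← per, sub_add_cancel, ← mul_assoc, div_mul_div_comm, ← mul_pow,
    show (1 - Complex.I) * ((1 - Complex.I) / 2) = -Complex.I by ring_nf; simp; ring] at h1
  have := mul_right_cancel₀ u.thetaSum_one_ne_zero ((one_mul _).trans h1)
  have i : (-Complex.I) ^ 15 = Complex.I := by
    rw [show 15 = 4 * 3 + 3 from rfl, pow_add, pow_mul]; simp [pow_succ]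
  rw [i, mul_one, one_div, eq_comm, inv_eq_one] at this
  simpa using congrArg Complex.re this

theorem int_of_even (sy : ∀ y z, B y z = B z y) (ev : ∀ y ∈ L, IsZ (B y y / 2)) :
    L ≤ B.dualSubmodule L := fun p hp => mem_dual.2 fun q hq => by
  convert ((ev _ (add_mem hp hq)).sub (ev p hp)).sub (ev q hq) using 1
  simp only [map_add, LinearMap.add_apply, sy q p]
  ring

theorem lat_of (hf : L.FG) (h : ∀ y, ∃ k : ℚ, k ≠ 0 ∧ k • y ∈ L) : L.IsLattice ℚ :=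
  ⟨hf, eq_top_iff.2 fun y _ => by
    obtain ⟨k, k0, hk⟩ := h y
    simpa [← mul_smul, k0] using smul_mem (span ℚ (L : Set V)) k⁻¹ (subset_span hk)⟩

/-- The Cartan matrix of type `E₆`. -/
def E6 : Matrix (Fin 6) (Fin 6) ℚ :=
  !![2, 0, -1, 0, 0, 0; 0, 2, 0, -1, 0, 0; -1, 0, 2, -1, 0, 0; 0, -1, -1, 2, -1, 0;
    0, 0, 0, -1, 2, -1; 0, 0, 0, 0, -1, 2]

theorem E6_apply (y z : Fin 6 → ℚ) : toBilin' E6 y z = y 0 * (2 * z 0 - z 2) + y 1 * (2 * z 1 - z 3) +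
    y 2 * (2 * z 2 - z 0 - z 3) + y 3 * (2 * z 3 - z 1 - z 2 - z 4) + y 4 * (2 * z 4 - z 3 - z 5) +
    y 5 * (2 * z 5 - z 4) := by
  simp [toBilin'_apply, E6, Fin.sum_univ_six]; ring

theorem not_three (hd : finrank ℚ V = 24) (hB : Pos B) (h : L.IsLattice ℚ)
    (ev : ∀ y ∈ L, IsZ (B y y / 2)) {u : V} (hu : u ∈ B.dualSubmodule L) (uu : B u u = 2 / 3)
    (gen : ∀ y ∈ B.dualSubmodule L, ∃ k : ℤ, y - (k : ℚ) • u ∈ L) : False := by
  have : FiniteDimensional ℚ V := finite_of_finrank_pos (by omega)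
  let C : LinearMap.BilinForm ℚ (V × (Fin 6 → ℚ)) :=
    B.comp (fst ℚ _ _) (fst ℚ _ _) + (toBilin' E6).comp (snd ℚ _ _) (snd ℚ _ _)
  have hC : ∀ p q, C p q = B p.1 q.1 + toBilin' E6 p.2 q.2 := fun _ _ => rfl
  let z : Fin 6 → ℚ := ![4 / 3, 1, 5 / 3, 2, 4 / 3, 2 / 3]
  let M : Submodule ℤ (Fin 6 → ℚ) := span ℤ (Set.range (Pi.basisFun ℚ (Fin 6)))
  have mM : ∀ y, y ∈ M ↔ ∀ i, IsZ (y i) := fun y => by
    simp [M, Basis.mem_span_iff_repr_mem, IsZ, eq_comm]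
  let Λ : Submodule ℤ (V × (Fin 6 → ℚ)) := L.prod M ⊔ span ℤ {(u, z)}
  have mΛ : ∀ p, p ∈ Λ ↔ ∃ k : ℤ, p.1 - (k : ℚ) • u ∈ L ∧ ∀ i, IsZ (p.2 i - k * z i) := fun p => by
    simp only [Λ, mem_sup, mem_prod, mem_span_singleton, mM]
    constructor
    · rintro ⟨a, ⟨h1, h2⟩, _, ⟨k, rfl⟩, rfl⟩
      exact ⟨k, by simpa [Int.cast_smul_eq_zsmul] using h1, by simpa using h2⟩
    · rintro ⟨k, h1, h2⟩
      exact ⟨(p.1 - (k : ℚ) • u, p.2 - (k : ℚ) • z), ⟨h1, h2⟩, _, ⟨k, rfl⟩, by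
        ext <;> simp [Int.cast_smul_eq_zsmul]⟩
  have sy : ∀ p q, C p q = C q p := fun p q => by
    rw [hC, hC, hB.symm, E6_apply, E6_apply]; ring
  have ev' : ∀ p ∈ Λ, IsZ (C p p / 2) := fun p hp => by
    obtain ⟨k, h1, h2⟩ := (mΛ p).1 hp
    choose m hm using h2
    obtain ⟨s, hs⟩ := ev _ h1
    obtain ⟨t, ht⟩ := mem_dual.1 hu _ h1
    simp only [map_sub, map_smul, LinearMap.sub_apply, LinearMap.smul_apply, smul_eq_mul,
      hB.symm p.1 u, uu] at hs ht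
    refine ⟨s + k * t + k * k + k * m 0 + m 0 ^ 2 + m 1 ^ 2 + m 2 ^ 2 + m 3 ^ 2 + m 4 ^ 2 + m 5 ^ 2 -
      m 0 * m 2 - m 1 * m 3 - m 2 * m 3 - m 3 * m 4 - m 4 * m 5, ?_⟩
    simp only [hC, E6_apply, fun i => eq_add_of_sub_eq (hm i)]
    simp [z]
    linear_combination hs + k * ht
  refine not_thirty (B := C) (L := Λ) (by simp [hd]) ⟨sy, fun p hp => ?_⟩
    (lat_of ((h.fg.prod (lat_span _).fg).sup (fg_span_singleton _)) fun p => ?_)
    (le_antisymm (fun p hp => ?_) (int_of_even sy ev')) ev'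
  · have e : toBilin' E6 p.2 p.2 = 2 * ((p.2 0 - p.2 2 / 2) ^ 2 + 3 / 4 * (p.2 2 - 2 / 3 * p.2 3) ^ 2 +
        (p.2 5 - p.2 4 / 2) ^ 2 + 3 / 4 * (p.2 4 - 2 / 3 * p.2 3) ^ 2 + (p.2 1 - p.2 3 / 2) ^ 2 +
        1 / 12 * p.2 3 ^ 2) := by rw [E6_apply]; ring
    rw [hC, e]
    by_cases a : p.1 = 0
    · rw [a, map_zero, zero_add]
      refine lt_of_le_of_ne (by positivity) fun b => hp (Prod.ext a ?_)
      have a0 := sq_nonneg (p.2 0 - p.2 2 / 2)
      have a1 := sq_nonneg (p.2 2 - 2 / 3 * p.2 3)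
      have a2 := sq_nonneg (p.2 5 - p.2 4 / 2)
      have a3 := sq_nonneg (p.2 4 - 2 / 3 * p.2 3)
      have a4 := sq_nonneg (p.2 1 - p.2 3 / 2)
      have a5 := sq_nonneg (p.2 3)
      have a0 := pow_eq_zero_iff two_ne_zero |>.1 (a0.antisymm' (by linarith))
      have a1 := pow_eq_zero_iff two_ne_zero |>.1 (a1.antisymm' (by linarith))
      have a2 := pow_eq_zero_iff two_ne_zero |>.1 (a2.antisymm' (by linarith))
      have a3 := pow_eq_zero_iff two_ne_zero |>.1 (a3.antisymm' (by linarith))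
      have a4 := pow_eq_zero_iff two_ne_zero |>.1 (a4.antisymm' (by linarith))
      have a5 := pow_eq_zero_iff two_ne_zero |>.1 (a5.antisymm' (by linarith))
      ext i
      fin_cases i <;> simp <;> linarith
    · have := hB.pos _ a
      positivity
  · obtain ⟨k, k0, hk⟩ := exists_mul_mem h p.1
    obtain ⟨l, l0, hl⟩ := exists_mul_mem (lat_span (Pi.basisFun ℚ (Fin 6))) p.2
    refine ⟨l * k, by positivity, mem_sup_left ⟨?_, ?_⟩⟩
    · simpa [mul_smul] using (IsZ.cast l).smul_mem hk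
    · simpa [mul_smul, mul_comm (l : ℚ)] using (IsZ.cast k).smul_mem hl
  · obtain ⟨k, hk⟩ := gen p.1 (mem_dual.2 fun l hl => by
      simpa [hC] using mem_dual.1 hp (l, 0) (mem_sup_left ⟨hl, zero_mem _⟩))
    choose a ha using fun i => mem_dual.1 hp (0, Pi.single i 1)
      (mem_sup_left ⟨zero_mem _, subset_span ⟨i, by simp⟩⟩)
    obtain ⟨t, ht⟩ := mem_dual.1 hp (u, z) (mem_sup_right (mem_span_singleton_self _))
    obtain ⟨r, hr⟩ := mem_dual.1 hu _ hk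
    have a0 := ha 0
    have a1 := ha 1
    have a2 := ha 2
    have a3 := ha 3
    have a4 := ha 4
    have a5 := ha 5
    simp [hC, E6_apply, z, uu, hB.symm p.1 u] at a0 a1 a2 a3 a4 a5 ht hr
    have e : 3 * (t - r) = 2 * k + 4 * a 0 + 3 * a 1 + 5 * a 2 + 6 * a 3 + 4 * a 4 + 2 * a 5 :=
      Int.cast_injective (α := ℚ) (by push_cast; linarith)
    obtain ⟨j, hj⟩ : ∃ j, a 0 - a 2 + a 4 - a 5 - k = 3 * j := ⟨(a 0 - a 2 + a 4 - a 5 - k) / 3, by omega⟩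
    have hj : (a 0 - a 2 + a 4 - a 5 - k : ℚ) = 3 * j := by exact_mod_cast hj
    refine (mΛ p).2 ⟨k, hk, fun i => ?_⟩
    fin_cases i <;> simp [z]
    · exact ⟨4 * j + a 1 + 3 * a 2 + 2 * a 3 + 2 * a 5, by push_cast; linarith⟩
    · exact ⟨3 * j + 2 * a 1 + 3 * a 2 + 3 * a 3 + a 4 + 2 * a 5, by push_cast; linarith⟩
    · exact ⟨5 * j + 2 * a 1 + 5 * a 2 + 4 * a 3 + a 4 + 3 * a 5, by push_cast; linarith⟩
    · exact ⟨6 * j + 3 * a 1 + 6 * a 2 + 6 * a 3 + 2 * a 4 + 4 * a 5, by push_cast; linarith⟩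
    · exact ⟨4 * j + 2 * a 1 + 4 * a 2 + 4 * a 3 + 2 * a 4 + 3 * a 5, by push_cast; linarith⟩
    · exact ⟨2 * j + a 1 + 2 * a 2 + 2 * a 3 + a 4 + 2 * a 5, by push_cast; linarith⟩

end Cfsg.Lib.Mcl275
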